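-- Sub-project [PDER+] of OPAR (S5989, helper70): unipotent derangements of Ω⁺_{2d}(q) on
-- nondegenerate subspaces of odd dimension.  Interface file: definitions and package statements
-- (helper57).
import Mathlib
import Cfsg.Prelude.Def_GeometricClasses
import Cfsg.Prelude.Def_Classical

set_option autoImplicit false
open scoped MatrixGroups
open Matrix

namespace Cfsg.Agent.Lib.Helper57.OPar

universe u

/-- Shift matrix: the entry `(i, k)` is `1` iff `k = i + h` and `i < c`. -/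
def sh (F : Type u) [Field F] (d h c : ℕ) : Matrix (Fin d) (Fin d) F :=
  Matrix.of fun i k => if k.val = i.val + h ∧ i.val < c then 1 else 0

/-- The block diagonal matrix `diag(1 + M, (1 + M)⁻ᵀ)` (for `M ^ 3 = 0`). -/
def xM {F : Type u} [Field F] {d : ℕ} (M : Matrix (Fin d) (Fin d) F) :
    Matrix (Fin d ⊕ Fin d) (Fin d ⊕ Fin d) F :=
  Matrix.fromBlocks (1 + M) 0 0 (1 - Mᵀ + Mᵀ * Mᵀ)

/-- [ALT] a nondegenerate alternating form lives on a space of even dimension. -/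
def PkgAlt : Prop :=
  ∀ (F : Type u) [Field F] (V : Type u) [AddCommGroup V] [Module F V] [FiniteDimensional F V],
    (2 : F) ≠ 0 →
    ∀ β : V →ₗ[F] V →ₗ[F] F, (∀ u, β u u = 0) → (∀ u, (∀ v, β u v = 0) → u = 0) →
      Even (Module.finrank F V)

/-- [UA] `N ^ 2 = 0`: invariant nondegenerate subspaces have dimension `4 a + w₁`, `w₁ ≤ e`,
where `e` bounds the defect of `ker N` over `range N`. -/
def PkgUA : Prop :=
  ∀ (F : Type u) [Field F] (V : Type u) [AddCommGroup V] [Module F V] [FiniteDimensional F V],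
    (2 : F) ≠ 0 →
    ∀ (B : V →ₗ[F] V →ₗ[F] F) (N : V →ₗ[F] V),
      (∀ u v, B u v = B v u) →
      (∀ u v, B (u + N u) (v + N v) = B u v) →
      (∀ v, N (N v) = 0) →
      ∀ (e : ℕ) (φ : V →ₗ[F] (Fin e → F)), (∀ v, N v = 0 → φ v = 0 → ∃ u, N u = v) →
      ∀ W : Submodule F V, (∀ w ∈ W, N w ∈ W) →
        (∀ w ∈ W, w ≠ 0 → ∃ v ∈ W, B w v ≠ 0) →
        ∃ a w₁ : ℕ, Module.finrank F W = 4 * a + w₁ ∧ w₁ ≤ e

/-- [UB] `N ^ 3 = 0`, `ker N` totally isotropic, `rank N ^ 2 ≤ 2`: invariant nondegenerate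
subspaces have dimension `4 a + 3 a₃`, `a₃ ≤ 2`. -/
def PkgUB : Prop :=
  ∀ (F : Type u) [Field F] (V : Type u) [AddCommGroup V] [Module F V] [FiniteDimensional F V],
    (2 : F) ≠ 0 →
    ∀ (B : V →ₗ[F] V →ₗ[F] F) (N : V →ₗ[F] V),
      (∀ u v, B u v = B v u) →
      (∀ u v, B (u + N u) (v + N v) = B u v) →
      (∀ v, N (N (N v)) = 0) →
      (∀ u v, N u = 0 → N v = 0 → B u v = 0) →
      Module.finrank F (LinearMap.range (N ∘ₗ N)) ≤ 2 →
      ∀ W : Submodule F V, (∀ w ∈ W, N w ∈ W) →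
        (∀ w ∈ W, w ≠ 0 → ∃ v ∈ W, B w v ≠ 0) →
        ∃ a a₃ : ℕ, Module.finrank F W = 4 * a + 3 * a₃ ∧ a₃ ≤ 2

/-- [QNDP] the plus-type form is a nondegenerate quadratic form in odd characteristic. -/
def PkgQndPlus : Prop :=
  ∀ (F : Type u) [Field F], (2 : F) ≠ 0 → ∀ d : ℕ,
    Cfsg.Geo.IsNondegenerateQuadraticForm (Cfsg.quadFormPlus d F)

/-- [ISO] `xM M` preserves the plus-type form when `M ^ 3 = 0`. -/
def PkgIso : Prop :=
  ∀ (F : Type u) [Field F] (d : ℕ) (M : Matrix (Fin d) (Fin d) F), M * M * M = 0 →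
    ∀ v : Fin d ⊕ Fin d → F, Cfsg.quadFormPlus d F (xM M *ᵥ v) = Cfsg.quadFormPlus d F v

/-- [ORD] `xM M` is invertible of order `p` in characteristic `p ≥ 3` when `M ^ 3 = 0 ≠ M`. -/
def PkgOrd : Prop :=
  ∀ (F : Type u) [Field F] (p : ℕ) [Fact p.Prime] [CharP F p], p ≠ 2 →
    ∀ (d : ℕ) (M : Matrix (Fin d) (Fin d) F), M * M * M = 0 → M ≠ 0 →
      ∃ x : GL (Fin d ⊕ Fin d) F, (x : Matrix (Fin d ⊕ Fin d) (Fin d ⊕ Fin d) F) = xM M ∧
        orderOf x = p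

/-- [KA] the shift matrix `sh F d h h` (`d = 2 h` or `2 h + 1`): square zero, nonzero, and the
kernel of `xM M - 1` exceeds its range by at most `2 (d - 2 h)` dimensions. -/
def PkgKA : Prop :=
  ∀ (F : Type u) [Field F] (d h : ℕ), 1 ≤ h → (d = 2 * h ∨ d = 2 * h + 1) →
    sh F d h h * sh F d h h = 0 ∧ sh F d h h ≠ 0 ∧
    ∃ φ : (Fin d ⊕ Fin d → F) →ₗ[F] (Fin (2 * (d - 2 * h)) → F),
      ∀ v : Fin d ⊕ Fin d → F, (xM (sh F d h h) - 1) *ᵥ v = 0 → φ v = 0 →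
        ∃ u : Fin d ⊕ Fin d → F, (xM (sh F d h h) - 1) *ᵥ u = v

/-- [KB] the shift matrix `sh F d h d` (`d = 2 h + 1`): cube zero, nonzero, the kernel of
`N = xM M - 1` is totally isotropic for the polar form, and `N ^ 2` has rank at most `2`. -/
def PkgKB : Prop :=
  ∀ (F : Type u) [Field F] (d h : ℕ), 1 ≤ h → d = 2 * h + 1 →
    sh F d h d * sh F d h d * sh F d h d = 0 ∧ sh F d h d ≠ 0 ∧
    (∀ u v : Fin d ⊕ Fin d → F, (xM (sh F d h d) - 1) *ᵥ u = 0 → (xM (sh F d h d) - 1) *ᵥ v = 0 →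
      QuadraticMap.polar (Cfsg.quadFormPlus d F) u v = 0) ∧
    Module.finrank F (LinearMap.range (Matrix.toLin'
      ((xM (sh F d h d) - 1) * (xM (sh F d h d) - 1)))) ≤ 2

/-- [NIL] nilpotency of `xM M - 1`. -/
def PkgNil : Prop :=
  ∀ (F : Type u) [Field F] (d : ℕ) (M : Matrix (Fin d) (Fin d) F),
    (M * M * M = 0 → (xM M - 1) * (xM M - 1) * (xM M - 1) = 0) ∧
    (M * M = 0 → (xM M - 1) * (xM M - 1) = 0)

/-- The goal of the sub-project: for every odd `m` a unipotent element of order `p` of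
`Ω⁺_{2d}(q)` (`q` odd, `d ≥ 3`) fixing no nondegenerate `m`-space. -/
def PDerPlus : Prop :=
  ∀ {F : Type u} [Field F] [Fintype F] {p : ℕ} [Fact p.Prime] [CharP F p], p ≠ 2 →
    ∀ d m : ℕ, 3 ≤ d → Odd m →
      ∃ x : GL (Fin d ⊕ Fin d) F, x ∈ Cfsg.Geo.omegaGL (Cfsg.quadFormPlus d F) ∧ orderOf x = p ∧
        ∀ W : Submodule F (Fin d ⊕ Fin d → F), Module.finrank F ↥W = m →
          Cfsg.Geo.IsNondegenerateOn (QuadraticMap.polar (Cfsg.quadFormPlus d F)) W →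
          W.map (Matrix.toLin' (x : Matrix (Fin d ⊕ Fin d) (Fin d ⊕ Fin d) F)) ≤ W → False

end Cfsg.Agent.Lib.Helper57.OPar
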