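-- Sub-project [PDER+] of OPAR (S5989): the unipotent derangement of Ω⁺_{2d}(q) on
-- odd-dimensional nondegenerate subspaces, assembled from the packages (helper57).
import Mathlib
import Cfsg.Agent.Lib.Helper57.OPar.Glue
import Cfsg.Agent.Lib.Helper97.OHyp.OddOmega
import Cfsg.Agent.Lib.Helper80.OPar.Alt
import Cfsg.Agent.Lib.Helper80.OPar.QndPlus
import Cfsg.Agent.Lib.Helper87.OPar.UA
import Cfsg.Agent.Lib.Helper87.OPar.UB
import Cfsg.Agent.Lib.Helper19.OPar.Iso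
import Cfsg.Agent.Lib.Helper19.OPar.Nil
import Cfsg.Agent.Lib.Helper19.OPar.Ord
import Cfsg.Agent.Lib.Helper27.OPar.KA
import Cfsg.Agent.Lib.Helper8.OPar.KB

set_option autoImplicit false

namespace Cfsg.Agent.Lib.Helper57.OPar

universe u

/-- For every odd `m`, a unipotent element of order `p` of `Ω⁺_{2d}(q)` (`q` odd, `d ≥ 3`)
fixing no nondegenerate `m`-space. -/
theorem pderPlus : PDerPlus.{u} :=
  pderPlus_of Cfsg.Agent.Lib.Helper97.OHyp.pkgOddOmega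
    (Cfsg.Agent.Lib.Helper87.OPar.pkgUA Cfsg.Agent.Lib.Helper80.OPar.pkgAlt)
    (Cfsg.Agent.Lib.Helper87.OPar.pkgUB Cfsg.Agent.Lib.Helper80.OPar.pkgAlt)
    Cfsg.Agent.Lib.Helper80.OPar.pkgQndPlus
    Cfsg.Agent.Lib.Helper19.OPar.pkgIso
    Cfsg.Agent.Lib.Helper19.OPar.pkgOrd
    Cfsg.Agent.Lib.Helper19.OPar.pkgNil
    Cfsg.Agent.Lib.Helper27.OPar.pkgKA
    Cfsg.Agent.Lib.Helper8.OPar.pkgKB

end Cfsg.Agent.Lib.Helper57.OPar
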